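import Mathlib
import Cfsg.Agent.Lib.Helper33.Breadth.Defs

set_option autoImplicit false

/-!
Project BREADTH (helper33, S3777): package [E].

Case `C' = G' ≠ 1`: a second maximal subgroup `M` with `M' = G'`, from the linear algebra lemma
[LIN], the invariant characters [SEPG] and the kernel packages [KER], [KERIDX].
-/

namespace Cfsg.Agent.Lib.Helper72.Breadth

open Cfsg.Agent.Lib.Helper33.Breadth

universe u

/-- The functions `G → ZMod p` that are additive on `N` and `G`-invariant on `N`. -/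
def lamSpace {G : Type u} [Group G] (p : ℕ) [Fact p.Prime] (N : Subgroup G) :
    Submodule (ZMod p) (G → ZMod p) where
  carrier := {lam | (∀ a ∈ N, ∀ b ∈ N, lam (a * b) = lam a + lam b) ∧
    (∀ a ∈ N, ∀ g : G, lam (g * a * g⁻¹) = lam a)}
  add_mem' := by
    rintro l1 l2 ⟨h1, h1'⟩ ⟨h2, h2'⟩
    refine ⟨fun a ha b hb => ?_, fun a ha g => ?_⟩
    · simp only [Pi.add_apply, h1 a ha b hb, h2 a ha b hb]; ring
    · simp only [Pi.add_apply, h1' a ha g, h2' a ha g]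
  zero_mem' := by
    refine ⟨fun a ha b hb => by simp, fun a ha g => by simp⟩
  smul_mem' := by
    rintro c l ⟨h1, h1'⟩
    refine ⟨fun a ha b hb => ?_, fun a ha g => ?_⟩
    · simp only [Pi.smul_apply, h1 a ha b hb, smul_add]
    · simp only [Pi.smul_apply, h1' a ha g]

/-- `lam ↦ (x, z) ↦ lam ⁅x, z⁆`. -/
def commMap (G : Type u) [Group G] (p : ℕ) [Fact p.Prime] :
    (G → ZMod p) →ₗ[ZMod p] (G → G → ZMod p) where
  toFun lam x z := lam (x * z * x⁻¹ * z⁻¹)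
  map_add' _ _ := rfl
  map_smul' _ _ := rfl

theorem lam_one {G : Type u} [Group G] {p : ℕ} [Fact p.Prime] {N : Subgroup G}
    {lam : G → ZMod p} (hl : lam ∈ lamSpace p N) : lam 1 = 0 := by
  have h := hl.1 1 N.one_mem 1 N.one_mem
  rw [mul_one] at h
  exact left_eq_add.mp h

/-- KEY: if `lam` kills all commutators of elements of `S` and `⁅S, S⁆ = N` then `lam` is zero
on `N`. -/
theorem key_vanish {G : Type u} [Group G] {p : ℕ} [Fact p.Prime] {N : Subgroup G}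
    {lam : G → ZMod p} (hl : lam ∈ lamSpace p N) (S : Subgroup G) (hS : ⁅S, S⁆ = N)
    (hv : ∀ x ∈ S, ∀ z ∈ S, lam (x * z * x⁻¹ * z⁻¹) = 0) : ∀ a ∈ N, lam a = 0 := by
  have h0 : lam 1 = 0 := lam_one hl
  obtain ⟨h1, h2⟩ := hl
  let K : Subgroup G :=
    { carrier := {a | a ∈ N ∧ lam a = 0}
      mul_mem' := by
        rintro a b ⟨ha, ha'⟩ ⟨hb, hb'⟩
        exact ⟨N.mul_mem ha hb, by rw [h1 a ha b hb, ha', hb', add_zero]⟩
      one_mem' := ⟨N.one_mem, h0⟩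
      inv_mem' := by
        rintro a ⟨ha, ha'⟩
        refine ⟨N.inv_mem ha, ?_⟩
        have h := h1 a ha a⁻¹ (N.inv_mem ha)
        rw [mul_inv_cancel, h0, ha', zero_add] at h
        exact h.symm }
  have hK : ⁅S, S⁆ ≤ K := by
    rw [Subgroup.commutator_le]
    intro x hx z hz
    refine ⟨?_, hv x hx z hz⟩
    rw [← hS]
    exact Subgroup.commutator_mem_commutator hx hz
  intro a ha
  rw [← hS] at ha
  exact (hK ha).2

theorem pkgE (hLin : PkgLin.{u}) (hSepG : PkgSepG.{u}) (hKer : PkgKer.{u})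
    (hKerIdx : PkgKerIdx.{u}) (_hNorm : PkgNorm.{u}) : PkgE.{u} := by
  intro G _ _ p _ hG C hCi hCC hne
  have hp : p.Prime := Fact.out
  obtain ⟨N, hN⟩ : ∃ N : Subgroup G, N = commutator G := ⟨_, rfl⟩
  have hNn : N.Normal := by rw [hN]; infer_instance
  have hNtop : ⁅(⊤ : Subgroup G), ⊤⁆ = N := by rw [hN, commutator_def]
  have hcomm : ∀ x z : G, x * z * x⁻¹ * z⁻¹ ∈ N := by
    intro x z
    rw [← hNtop]
    exact Subgroup.commutator_mem_commutator (Subgroup.mem_top x) (Subgroup.mem_top z)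
  rw [← hN] at hCC hne ⊢
  -- the space `L`
  obtain ⟨L, hL⟩ : ∃ L : Submodule (ZMod p) (G → G → ZMod p),
      L = (lamSpace p N).map (commMap G p) := ⟨_, rfl⟩
  have hLmem : ∀ β ∈ L, ∃ lam ∈ lamSpace p N, commMap G p lam = β := by
    intro β hβ
    rw [hL] at hβ
    exact hβ
  have hmemL : ∀ lam ∈ lamSpace p N, commMap G p lam ∈ L := by
    intro lam hl
    rw [hL]
    exact ⟨lam, hl, rfl⟩
  have hzero : ∀ lam ∈ lamSpace p N, (∀ a ∈ N, lam a = 0) → commMap G p lam = 0 := by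
    intro lam _ h
    funext x z
    exact h _ (hcomm x z)
  have hL1 : ∀ β ∈ L, ∀ x x' z, β (x * x') z = β x z + β x' z := by
    intro β hβ x x' z
    obtain ⟨lam, hl, rfl⟩ := hLmem β hβ
    obtain ⟨h1, h2⟩ := hl
    show lam (x * x' * z * (x * x')⁻¹ * z⁻¹)
      = lam (x * z * x⁻¹ * z⁻¹) + lam (x' * z * x'⁻¹ * z⁻¹)
    have e : x * x' * z * (x * x')⁻¹ * z⁻¹
        = (x * (x' * z * x'⁻¹ * z⁻¹) * x⁻¹) * (x * z * x⁻¹ * z⁻¹) := by group
    rw [e, h1 _ (hNn.conj_mem _ (hcomm x' z) x) _ (hcomm x z), h2 _ (hcomm x' z) x, add_comm]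
  have hL2 : ∀ β ∈ L, ∀ x z z', β x (z * z') = β x z + β x z' := by
    intro β hβ x z z'
    obtain ⟨lam, hl, rfl⟩ := hLmem β hβ
    obtain ⟨h1, h2⟩ := hl
    show lam (x * (z * z') * x⁻¹ * (z * z')⁻¹)
      = lam (x * z * x⁻¹ * z⁻¹) + lam (x * z' * x⁻¹ * z'⁻¹)
    have e : x * (z * z') * x⁻¹ * (z * z')⁻¹
        = (x * z * x⁻¹ * z⁻¹) * (z * (x * z' * x⁻¹ * z'⁻¹) * z⁻¹) := by group
    rw [e, h1 _ (hcomm x z) _ (hNn.conj_mem _ (hcomm x z') z), h2 _ (hcomm x z') z]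
  have hL3 : ∀ β ∈ L, ∀ x, β x x = 0 := by
    intro β hβ x
    obtain ⟨lam, hl, rfl⟩ := hLmem β hβ
    show lam (x * x * x⁻¹ * x⁻¹) = 0
    have e : x * x * x⁻¹ * x⁻¹ = 1 := by group
    rw [e]
    exact lam_one hl
  -- a nonzero element of `L`
  have hbot : (⊥ : Subgroup G) < N := bot_lt_iff_ne_bot.mpr hne
  have hL4 : ∃ β ∈ L, β ≠ 0 := by
    obtain ⟨lam, h1, h2, -, a, ha, hla⟩ := hSepG p hG N ⊥ hNn inferInstance hbot
    have hl : lam ∈ lamSpace p N := ⟨h1, h2⟩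
    refine ⟨commMap G p lam, hmemL lam hl, fun h0 => hla ?_⟩
    exact key_vanish hl ⊤ hNtop (fun x _ z _ => congrFun (congrFun h0 x) z) a ha
  obtain ⟨χ₀, hχ₀add, hχ₀C⟩ := hKer p hG C hCi
  have hχ₀ne : ∃ x, χ₀ x ≠ 0 := by
    by_contra h
    push Not at h
    have hCtop : C = ⊤ := by
      rw [eq_top_iff]
      intro x _
      exact (hχ₀C x).mp (h x)
    rw [hCtop, Subgroup.index_top] at hCi
    exact hp.one_lt.ne hCi
  have hhyp : ∀ β ∈ L, (∀ x z, χ₀ x = 0 → χ₀ z = 0 → β x z = 0) → β = 0 := by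
    intro β hβ h
    obtain ⟨lam, hl, rfl⟩ := hLmem β hβ
    apply hzero lam hl
    exact key_vanish hl C hCC (fun x hx z hz => h x z ((hχ₀C x).mpr hx) ((hχ₀C z).mpr hz))
  obtain ⟨χ, hχadd, hχne, ⟨x0, hx0, hx0'⟩, hχL⟩ :=
    hLin p L hL1 hL2 hL3 hL4 χ₀ hχ₀add hχ₀ne hhyp
  obtain ⟨M, hMn, hMi, hMχ⟩ := hKerIdx p χ hχadd hχne
  refine ⟨M, hMi, ?_, ?_⟩
  · intro hMC
    have hx0M : x0 ∈ M := by
      rw [hMC]
      exact (hχ₀C x0).mp hx0
    exact hx0' ((hMχ x0).mp hx0M)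
  · by_contra hMM
    have hle : ⁅M, M⁆ ≤ N := by
      rw [← hNtop]
      exact Subgroup.commutator_mono le_top le_top
    have hlt : ⁅M, M⁆ < N := lt_of_le_of_ne hle hMM
    have hMMn : (⁅M, M⁆ : Subgroup G).Normal := inferInstance
    obtain ⟨lam, h1, h2, h3, a, ha, hla⟩ := hSepG p hG N ⁅M, M⁆ hNn hMMn hlt
    have hl : lam ∈ lamSpace p N := ⟨h1, h2⟩
    have hβ : commMap G p lam = 0 := by
      apply hχL _ (hmemL lam hl)
      intro x z hx hz
      exact h3 _ (Subgroup.commutator_mem_commutator ((hMχ x).mpr hx) ((hMχ z).mpr hz))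
    exact hla (key_vanish hl ⊤ hNtop (fun x _ z _ => congrFun (congrFun hβ x) z) a ha)

end Cfsg.Agent.Lib.Helper72.Breadth
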